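import Cfsg.Agent.Lib.Helper11.Hec0.Top

set_option autoImplicit false
set_option maxRecDepth 100000

namespace Cfsg.Agent.Lib.Helper11.Hec0

set_option maxHeartbeats 0
theorem b0 : allR (guardB 8 (blk fc sc rt.get INV isH)) 3 0 = true := by decide +kernel
theorem c0 : allR (guardB 8 (cblk fc nc cc 2048 240 497323236409786642155382248146820840100456150797347717440463976893159497012533375533056 gens)) 3 0 = true := by decide +kernel

end Cfsg.Agent.Lib.Helper11.Hec0
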