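import Cfsg.Agent.Lib.Helper11.Hec0.D0
import Cfsg.Agent.Lib.Helper11.Words

set_option autoImplicit false
set_option maxRecDepth 100000

namespace Cfsg.Agent.Lib.Helper11.Hec0

noncomputable def fc (i : ℕ) : ℕ := fc0_0 i
noncomputable def sc (i : ℕ) : ℕ := sc0_0 i
noncomputable def nc (i : ℕ) : ℕ := nc0_0 i
noncomputable def cc (i : ℕ) : ℕ := cc0_0 i

noncomputable def INV : ℕ := 6614517792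
def isH (l : ℕ) : Bool := decide (l ∈ [1, 3, 4, 5, 6])
def gens : List ℕ := [1, 2, 3, 4, 5, 6]
def rt : RT := (.node 9 (.node 4 (.node 2 (.node 1 (.leaf 9 0 [1, 3, 1, 3]) (.leaf 11 0 [1, 5, 1, 5])) (.node 3 (.leaf 12 0 [1, 6, 1, 6]) (.leaf 10 0 [1, 4, 1, 4]))) (.node 7 (.node 6 (.node 5 (.leaf 8 0 [1, 2, 1, 2]) (.leaf 29 0 [4, 5, 4, 5])) (.leaf 17 0 [2, 5, 2, 5])) (.node 8 (.leaf 18 0 [2, 6, 2, 6]) (.leaf 24 1 [6, 3, 6, 3, 6, 3])))) (.node 18 (.node 13 (.node 11 (.node 10 (.leaf 16 0 [2, 4, 2, 4]) (.leaf 22 1 [4, 3, 4, 3, 4, 3])) (.node 12 (.leaf 23 1 [5, 3, 5, 3, 5, 3]) (.leaf 30 0 [4, 6, 4, 6]))) (.node 16 (.node 15 (.node 14 (.leaf 43 2 [5, 6, 5, 4, 6]) (.leaf 43 3 [6, 5, 4, 6, 5])) (.leaf 18 1 [6, 2, 6, 2])) (.node 17 (.leaf 23 0 [3, 5, 3, 5, 3, 5])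 (.leaf 17 1 [5, 2, 5, 2])))) (.node 25 (.node 22 (.node 20 (.node 19 (.leaf 30 1 [6, 4, 6, 4]) (.leaf 16 1 [4, 2, 4, 2])) (.node 21 (.leaf 22 0 [3, 4, 3, 4, 3, 4]) (.leaf 24 0 [3, 6, 3, 6, 3, 6]))) (.node 24 (.node 23 (.leaf 29 1 [5, 4, 5, 4]) (.leaf 44 2 [2, 3, 2, 3, 2, 3, 2, 3, 2, 1, 3])) (.leaf 45 3 [6, 2, 3, 5, 6, 2, 3, 5, 6, 2, 3, 5, 6, 2, 3, 5]))) (.node 31 (.node 28 (.node 27 (.node 26 (.leaf 45 1 [3, 5, 6, 2, 3, 5, 6, 2, 3, 5, 6, 2, 3, 5, 6, 2]) (.leaf 46 0 [2, 3, 4, 2, 3, 4, 2, 3, 4, 2, 3, 4, 2, 3, 4])) (.leaf 46 1 [3, 4, 2, 3, 4, 2, 3, 4, 2, 3, 4, 2, 3, 4, 2])) (.node 30 (.node 29 (.leaf 44 3 [3, 2, 3, 2, 3, 2, 3, 2, 1, 3, 2]) (.leaf 43 4 [5, 4, 6, 5, 6])) (.leaf 43 1 [6, 5, 6, 5, 4]))) (.node 35 (.node 33 (.node 32 (.leaf 45 2 [5, 6, 2, 3,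 5, 6, 2, 3, 5, 6, 2, 3, 5, 6, 2, 3]) (.leaf 5 0 [5, 5])) (.node 34 (.leaf 6 0 [6, 6]) (.leaf 43 0 [4, 6, 5, 6, 5]))) (.node 38 (.node 37 (.node 36 (.leaf 45 0 [2, 3, 5, 6, 2, 3, 5, 6, 2, 3, 5, 6, 2, 3, 5, 6]) (.leaf 46 2 [4, 2, 3, 4, 2, 3, 4, 2, 3, 4, 2, 3, 4, 2, 3])) (.leaf 2 0 [2, 2])) (.node 40 (.node 39 (.leaf 4 0 [4, 4]) (.leaf 0 0 [])) (.leaf 3 0 [3, 3]))))))))


end Cfsg.Agent.Lib.Helper11.Hec0
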